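import Cfsg.Agent.Lib.Schur.Cover.SuzP.Data
import Cfsg.Agent.Lib.TC.G.Suz

set_option autoImplicit false
set_option maxRecDepth 100000
set_option maxHeartbeats 0

namespace Cfsg.Agent.Lib.Schur.Cover.SuzP

open Cfsg.Agent.Lib.Schur.CoverP Cfsg.Agent.Lib.PermComp.Kron

theorem ck18 : rangeAll (chkAt 6 32760 7 Cfsg.Agent.Lib.TC.G.Suz.K.inv tb RJ) (18 * 1000) 1000 = true := by decide +kernel

theorem ck19 : rangeAll (chkAt 6 32760 7 Cfsg.Agent.Lib.TC.G.Suz.K.inv tb RJ) (19 * 1000) 1000 = true := by decide +kernel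

theorem ck20 : rangeAll (chkAt 6 32760 7 Cfsg.Agent.Lib.TC.G.Suz.K.inv tb RJ) (20 * 1000) 1000 = true := by decide +kernel

theorem ck21 : rangeAll (chkAt 6 32760 7 Cfsg.Agent.Lib.TC.G.Suz.K.inv tb RJ) (21 * 1000) 1000 = true := by decide +kernel

theorem ck22 : rangeAll (chkAt 6 32760 7 Cfsg.Agent.Lib.TC.G.Suz.K.inv tb RJ) (22 * 1000) 1000 = true := by decide +kernel

theorem ck23 : rangeAll (chkAt 6 32760 7 Cfsg.Agent.Lib.TC.G.Suz.K.inv tb RJ) (23 * 1000) 1000 = true := by decide +kernel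

theorem ck24 : rangeAll (chkAt 6 32760 7 Cfsg.Agent.Lib.TC.G.Suz.K.inv tb RJ) (24 * 1000) 1000 = true := by decide +kernel

theorem ck25 : rangeAll (chkAt 6 32760 7 Cfsg.Agent.Lib.TC.G.Suz.K.inv tb RJ) (25 * 1000) 1000 = true := by decide +kernel

theorem ck26 : rangeAll (chkAt 6 32760 7 Cfsg.Agent.Lib.TC.G.Suz.K.inv tb RJ) (26 * 1000) 1000 = true := by decide +kernel

end Cfsg.Agent.Lib.Schur.Cover.SuzP
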