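import Cfsg.Agent.Lib.Schur.Cover.SuzP.Data
import Cfsg.Agent.Lib.TC.G.Suz

set_option autoImplicit false
set_option maxRecDepth 100000
set_option maxHeartbeats 0

namespace Cfsg.Agent.Lib.Schur.Cover.SuzP

open Cfsg.Agent.Lib.Schur.CoverP Cfsg.Agent.Lib.PermComp.Kron

theorem ck27 : rangeAll (chkAt 6 32760 7 Cfsg.Agent.Lib.TC.G.Suz.K.inv tb RJ) (27 * 1000) 1000 = true := by decide +kernel

theorem ck28 : rangeAll (chkAt 6 32760 7 Cfsg.Agent.Lib.TC.G.Suz.K.inv tb RJ) (28 * 1000) 1000 = true := by decide +kernel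

theorem ck29 : rangeAll (chkAt 6 32760 7 Cfsg.Agent.Lib.TC.G.Suz.K.inv tb RJ) (29 * 1000) 1000 = true := by decide +kernel

theorem ck30 : rangeAll (chkAt 6 32760 7 Cfsg.Agent.Lib.TC.G.Suz.K.inv tb RJ) (30 * 1000) 1000 = true := by decide +kernel

theorem ck31 : rangeAll (chkAt 6 32760 7 Cfsg.Agent.Lib.TC.G.Suz.K.inv tb RJ) (31 * 1000) 1000 = true := by decide +kernel

theorem ck32 : rangeAll (chkAt 6 32760 7 Cfsg.Agent.Lib.TC.G.Suz.K.inv tb RJ) (32 * 1000) 760 = true := by decide +kernel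

end Cfsg.Agent.Lib.Schur.Cover.SuzP
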